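import Mathlib

/-! Abstract lemma: the action of a group of linear maps on an invariant finite family of
projective points. -/

set_option autoImplicit false

namespace Cfsg.Agent.Lib.Helper19.G2

section proj
variable {G X V F : Type*} [Group G] [Finite X] [Field F] [AddCommGroup V] [Module F V]
  (act : G → V → V) (h1 : ∀ v, act 1 v = v) (hm : ∀ g h v, act (g * h) v = act g (act h v))
  (hs : ∀ g (l : F) v, act g (l • v) = l • act g v)
  (v : X → V) (hinj : ∀ j k (l : F), l ≠ 0 → v j = l • v k → j = k)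

include h1 hm hs hinj in
theorem pnz_inv {g : G} (h : ∀ j, ∃ k, ∃ l : F, l ≠ 0 ∧ act g (v j) = l • v k) :
    ∀ j, ∃ k, ∃ l : F, l ≠ 0 ∧ act g⁻¹ (v j) = l • v k := by
  choose f l hl hf using h
  have hback : ∀ w, act g⁻¹ (act g w) = w := by
    intro w
    rw [← hm, inv_mul_cancel, h1]
  have hfi : Function.Injective f := by
    intro a b hab
    apply hinj a b (l a * (l b)⁻¹) (mul_ne_zero (hl a) (inv_ne_zero (hl b)))
    have e1 : act g (v a) = act g ((l a * (l b)⁻¹) • v b) := by
      rw [hs, hf a, hf b, hab, smul_smul, mul_assoc, inv_mul_cancel₀ (hl b), mul_one]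
    have e2 := congrArg (act g⁻¹) e1
    rwa [hback, hback] at e2
  have hsurj := Finite.injective_iff_surjective.1 hfi
  intro j
  obtain ⟨k, rfl⟩ := hsurj j
  refine ⟨k, (l k)⁻¹, inv_ne_zero (hl k), ?_⟩
  have e := congrArg (act g⁻¹) (hf k)
  rw [hback, hs] at e
  rw [e, smul_smul, inv_mul_cancel₀ (hl k), one_smul]

/-- the elements permuting the family of projective points -/
def pnz : Subgroup G where
  carrier := {g | ∀ j, ∃ k, ∃ l : F, l ≠ 0 ∧ act g (v j) = l • v k}
  one_mem' := fun j => ⟨j, 1, one_ne_zero, by rw [h1, one_smul]⟩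
  mul_mem' := by
    intro a b ha hb j
    obtain ⟨k, l, hl, e⟩ := hb j
    obtain ⟨k', l', hl', e'⟩ := ha k
    refine ⟨k', l * l', mul_ne_zero hl hl', ?_⟩
    rw [hm, e, hs, e', smul_smul]
  inv_mem' := fun h => pnz_inv act h1 hm hs v hinj h

noncomputable def pact (g : pnz act h1 hm hs v hinj) (j : X) : X := (g.2 j).choose

theorem pact_spec (g : pnz act h1 hm hs v hinj) (j : X) :
    ∃ l : F, l ≠ 0 ∧ act g.1 (v j) = l • v (pact act h1 hm hs v hinj g j) :=
  (g.2 j).choose_spec

theorem pact_eq (g : pnz act h1 hm hs v hinj) (j k : X) (l : F) (hl : l ≠ 0)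
    (h : act g.1 (v j) = l • v k) : pact act h1 hm hs v hinj g j = k := by
  obtain ⟨l', hl', e⟩ := pact_spec act h1 hm hs v hinj g j
  apply hinj _ _ (l'⁻¹ * l) (mul_ne_zero (inv_ne_zero hl') hl)
  rw [← smul_smul, ← h, e, smul_smul, inv_mul_cancel₀ hl', one_smul]

@[instance_reducible] noncomputable def pnzAct : MulAction (pnz act h1 hm hs v hinj) X where
  smul := pact act h1 hm hs v hinj
  one_smul j := pact_eq act h1 hm hs v hinj 1 j j 1 one_ne_zero (by
    show act 1 (v j) = _
    rw [h1, one_smul])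
  mul_smul g h j := by
    show pact act h1 hm hs v hinj (g * h) j =
      pact act h1 hm hs v hinj g (pact act h1 hm hs v hinj h j)
    obtain ⟨l, hl, e⟩ := pact_spec act h1 hm hs v hinj h j
    obtain ⟨l', hl', e'⟩ := pact_spec act h1 hm hs v hinj g (pact act h1 hm hs v hinj h j)
    exact pact_eq act h1 hm hs v hinj (g * h) j _ (l * l') (mul_ne_zero hl hl') (by
      show act (g.1 * h.1) (v j) = _
      rw [hm, e, hs, e', smul_smul])

/-- the permutation representation on the index set -/
noncomputable def prho : pnz act h1 hm hs v hinj →* Equiv.Perm X :=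
  @MulAction.toPermHom (pnz act h1 hm hs v hinj) X _ (pnzAct act h1 hm hs v hinj)

theorem prho_eq (g : pnz act h1 hm hs v hinj) (j k : X) (l : F) (hl : l ≠ 0)
    (h : act g.1 (v j) = l • v k) : prho act h1 hm hs v hinj g j = k :=
  pact_eq act h1 hm hs v hinj g j k l hl h

end proj

end Cfsg.Agent.Lib.Helper19.G2
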