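import Cfsg.Agent.Lib.Helper19.G2.Vec
import Cfsg.Prelude.Def_ChevG2

/-! Checks: the columns of the root elements. -/

set_option autoImplicit false
set_option maxRecDepth 1000000

namespace Cfsg.Agent.Lib.Helper19.G2

open Cfsg.Agent.Lib.Helper19.TCS
open Cfsg.Agent.Lib.Helper19.Sp4 (K4)

/-- the matrices of the root elements -/
def xM (r : Fin 12) (t : K4) : Matrix I14 I14 K4 := Cfsg.Lie.chevG2.xMat K4 r t

theorem okCol : ∀ r : Fin 12, ∀ t : K4, ∀ j : I14, ∀ d : Fin 4,
    dec (cc (4 * r.1 + t.n) (pos j) d.1) = K4.ofN d.1 • (fun i => xM r t i j) := by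
  decide +kernel

end Cfsg.Agent.Lib.Helper19.G2
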