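import Cfsg.Agent.Lib.Helper19.G2.Vec

/-! The check that a root element permutes the 1365 points. -/

set_option autoImplicit false

namespace Cfsg.Agent.Lib.Helper19.G2

open Cfsg.Agent.Lib.Helper19.TCS
open Cfsg.Agent.Lib.Helper19

def chkG (L j : ℕ) : Bool :=
  TC2.strict (fun k => TC2.strict (fun y => and (Nat.blt k 1365)
    (or (Nat.beq y (V1 k)) (or (Nat.beq y (V2 k)) (Nat.beq y (V3 k)))))
    (TC2.strict (mvc L) (V1 j))) (fB cX L j)

end Cfsg.Agent.Lib.Helper19.G2
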