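import Cfsg.Agent.Lib.Helper19.G2.Data
import Cfsg.Agent.Lib.Helper19.Suzc.DataB

/-! Checks: the action of the generators of the subgroup of `Suz`. -/

set_option autoImplicit false
set_option maxRecDepth 1000000

namespace Cfsg.Agent.Lib.Helper19.G2

open Cfsg.Agent.Lib.Helper19.TCS
open Cfsg.Agent.Lib.Helper19

theorem okE' : loop (fun k => loop (fun j => Nat.beq (TC2.app Suzc.cB (selW Suzc.sgw k) (Nat.add j 417))
    (Nat.add (fB cA k j) 417)) 0 1365) 0 6 = true := by decide +kernel

theorem sgw_sel : ∀ w ∈ Suzc.sgw, ∃ k : Fin 6, selW Suzc.sgw k.1 = w := by decide +kernel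

theorem x3_ne' : fB cX 3 1 ≠ 1 := by decide +kernel

end Cfsg.Agent.Lib.Helper19.G2
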