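import Cfsg.Agent.Lib.Helper19.G2.CkD

/-! Checks: the root elements permute the 1365 points. -/

set_option autoImplicit false
set_option maxRecDepth 1000000

namespace Cfsg.Agent.Lib.Helper19.G2

open Cfsg.Agent.Lib.Helper19.TCS

theorem okGen0 : loop (fun L => loop (fun j => chkG L j) 0 1365) 0 4 = true := by decide +kernel

theorem okGen1 : loop (fun L => loop (fun j => chkG L j) 0 1365) 4 4 = true := by decide +kernel

theorem okGen2 : loop (fun L => loop (fun j => chkG L j) 0 1365) 8 4 = true := by decide +kernel

theorem okGen3 : loop (fun L => loop (fun j => chkG L j) 0 1365) 12 4 = true := by decide +kernel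

end Cfsg.Agent.Lib.Helper19.G2
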