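import Cfsg.Agent.Lib.Helper19.G2.CkD

/-! Checks: the root elements permute the 1365 points. -/

set_option autoImplicit false
set_option maxRecDepth 1000000

namespace Cfsg.Agent.Lib.Helper19.G2

open Cfsg.Agent.Lib.Helper19.TCS

theorem okGen8 : loop (fun L => loop (fun j => chkG L j) 0 1365) 32 4 = true := by decide +kernel

theorem okGen9 : loop (fun L => loop (fun j => chkG L j) 0 1365) 36 4 = true := by decide +kernel

theorem okGen10 : loop (fun L => loop (fun j => chkG L j) 0 1365) 40 4 = true := by decide +kernel

theorem okGen11 : loop (fun L => loop (fun j => chkG L j) 0 1365) 44 4 = true := by decide +kernel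

end Cfsg.Agent.Lib.Helper19.G2
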