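import Cfsg.Agent.Lib.Helper19.TC2S

/-! A linear check that a list of values is strictly increasing. -/

set_option autoImplicit false

namespace Cfsg.Agent.Lib.Helper19.G2

open Cfsg.Agent.Lib.Helper19

/-- the values `f p`, for `p` in the list, increase strictly and are at least `lo` -/
def incrF {α : Type} (f : α → ℕ) (l : List α) : ℕ → Bool :=
  List.rec (fun _ => true)
    (fun p _ ih lo => TC2.strict (fun y => cond (Nat.ble lo y) (ih (Nat.succ y)) false) (f p)) l

theorem incrF_cons {α : Type} (f : α → ℕ) (p : α) (l : List α) (lo : ℕ) :
    incrF f (p :: l) lo = cond (Nat.ble lo (f p)) (incrF f l (Nat.succ (f p))) false := by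
  show TC2.strict (fun y => cond (Nat.ble lo y) (incrF f l (Nat.succ y)) false) (f p) = _
  rw [TC2.strict_eq]

theorem incrF_spec {α : Type} (f : α → ℕ) (l : List α) : ∀ lo, incrF f l lo = true →
    (∀ x ∈ l.map f, lo ≤ x) ∧ (l.map f).Nodup := by
  induction l with
  | nil => intro lo _; simp
  | cons p l ih =>
    intro lo h
    rw [incrF_cons] at h
    cases hb : Nat.ble lo (f p)
    · rw [hb] at h; simp at h
    · rw [hb] at h
      have h' : incrF f l (Nat.succ (f p)) = true := h
      obtain ⟨h1, h2⟩ := ih _ h'
      have hle : lo ≤ f p := Nat.le_of_ble_eq_true hb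
      constructor
      · intro x hx
        rw [List.map_cons, List.mem_cons] at hx
        rcases hx with rfl | hx
        · exact hle
        · have := h1 x hx
          omega
      · rw [List.map_cons, List.nodup_cons]
        refine ⟨?_, h2⟩
        intro hx
        have := h1 _ hx
        omega

theorem nodup_of_incrF {α : Type} (f : α → ℕ) (l : List α) (h : incrF f l 0 = true) :
    (l.map f).Nodup := (incrF_spec f l 0 h).2

end Cfsg.Agent.Lib.Helper19.G2
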