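import Cfsg.Agent.Lib.Helper19.G2.Data
import Cfsg.Agent.Lib.Helper19.Sp4.LB
import Cfsg.Agent.Lib.Helper19.G2.Inc

/-! Checks on permutations. -/

set_option autoImplicit false
set_option maxRecDepth 1000000

namespace Cfsg.Agent.Lib.Helper19.G2

open Cfsg.Agent.Lib.Helper19.TCS
open Cfsg.Agent.Lib.Helper19.Sp4 (flat)
open Cfsg.Agent.Lib.Helper19

theorem okA_lt : loop (fun k => loop (fun j => Nat.blt (fB cA k j) 1365) 0 1365) 0 6 = true := by
  decide +kernel

theorem okW : loop (fun k => loop (fun j => Nat.beq (app cX (selW aw k) j) (fB cA k j)) 0 1365) 0 6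
    = true := by decide +kernel

theorem aw_lt : ∀ w ∈ aw, ∀ k ∈ w, k < 48 := by decide +kernel

theorem hJ0 : ∀ w ∈ ws0, ∀ k ∈ w, k < 6 := by decide +kernel
theorem hs1 : ∀ w ∈ ws1, w ∈ ws0 := by decide +kernel
theorem hs2 : ∀ w ∈ ws2, w ∈ ws1 := by decide +kernel
theorem hf1 : ∀ w ∈ ws1, app cA w 336 = 336 := by decide +kernel
theorem hf2 : ∀ w ∈ ws2, app cA w 0 = 0 := by decide +kernel
theorem hl0 : pa0.length = 1365 := by decide +kernel
theorem hl1 : pa1.length = 1024 := by decide +kernel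
theorem hl2 : pa2.length = 180 := by decide +kernel
theorem hi0 : incrF (fun p => app cA (flat ws0 p) 336) pa0 0 = true := by decide +kernel
theorem hn0 : (pa0.map (fun p => app cA (flat ws0 p) 336)).Nodup := nodup_of_incrF _ _ hi0
theorem hi1 : incrF (fun p => app cA (flat ws1 p) 0) pa1 0 = true := by decide +kernel
theorem hn1 : (pa1.map (fun p => app cA (flat ws1 p) 0)).Nodup := nodup_of_incrF _ _ hi1
theorem hi2 : incrF (fun p => app cA (flat ws2 p) 1) pa2 0 = true := by decide +kernel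
theorem hn2 : (pa2.map (fun p => app cA (flat ws2 p) 1)).Nodup := nodup_of_incrF _ _ hi2

end Cfsg.Agent.Lib.Helper19.G2
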