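import Cfsg.Agent.Lib.Helper19.G2.Vec
import Cfsg.Agent.Lib.Helper19.G2.DataH

/-! Checks on the vectors of the 1365 points. -/

set_option autoImplicit false
set_option maxRecDepth 1000000

namespace Cfsg.Agent.Lib.Helper19.G2

open Cfsg.Agent.Lib.Helper19.TCS
open Cfsg.Agent.Lib.Helper19.Sp4 (K4)

theorem okH : loop (fun j => Nat.beq (fld 12 4095 tH (Nat.mod (V1 j) hM)) j) 0 1365 = true := by
  decide +kernel

theorem okV : ∀ j : Fin 1365, dec (V2 j.1) = K4.w • dec (V1 j.1) ∧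
    dec (V3 j.1) = K4.u • dec (V1 j.1) ∧ Nrm (dec (V1 j.1)) ∧ V1 j.1 < 268435456 := by
  decide +kernel

end Cfsg.Agent.Lib.Helper19.G2
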