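import Cfsg.Agent.S1694
import Cfsg.Agent.S1055
import Cfsg.Agent.S1059
import Cfsg.Agent.Lib.Helper19.O7.Abs
import Cfsg.Agent.Lib.Helper19.G2.Abs
import Cfsg.Agent.Lib.Helper19.G2.CkC
import Cfsg.Agent.Lib.Helper19.G2.CkG0
import Cfsg.Agent.Lib.Helper19.G2.CkG1
import Cfsg.Agent.Lib.Helper19.G2.CkG2
import Cfsg.Agent.Lib.Helper19.G2.CkV
import Cfsg.Agent.Lib.Helper19.G2.CkP
import Cfsg.Agent.Lib.Helper19.G2.CkE

/-! The subgroup `⟨a, …, f⟩` of `Suz` is isomorphic to `G₂(4)`. -/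

set_option autoImplicit false
set_option maxRecDepth 1000000

namespace Cfsg.Agent.Lib.Helper19.G2

open Cfsg.Agent.Lib.Helper19.TCS
open Cfsg.Agent.Lib.Helper19.TC2 (KW)
open Cfsg.Agent.Lib.Helper19.PresSuz (el)
open Cfsg.Agent.Lib.Helper19.Sp4 (K4 flat)
open Cfsg.Agent.Lib.Helper19
open Matrix

/-! ### the matrix side -/

abbrev SG : Subgroup (GL I14 K4) := Cfsg.Lie.chevG2.group K4

def act (g : GL I14 K4) (x : V14) : V14 := (g : Matrix I14 I14 K4) *ᵥ x

theorem act_one (x : V14) : act 1 x = x := one_mulVec x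

theorem act_mul (g h : GL I14 K4) (x : V14) : act (g * h) x = act g (act h x) := by
  unfold act
  rw [mulVec_mulVec]
  rfl

theorem act_smul (g : GL I14 K4) (l : K4) (x : V14) : act g (l • x) = l • act g x :=
  mulVec_smul _ _ _

theorem vt_inj (j k : Fin 1365) (l : K4) (hl : l ≠ 0) (h : vt j.1 = l • vt k.1) : j = k := by
  have e := one_of_nrm (okV j).2.2.1 (okV k).2.2.1 l hl h
  rw [e, one_smul] at h
  have h2 : V1 j.1 = V1 k.1 := by
    rw [← enc_dec _ (okV j).2.2.2, ← enc_dec _ (okV k).2.2.2]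
    exact congrArg enc h
  have hj := Nat.eq_of_beq_eq_true (loop_spec okH j.1 (Nat.zero_le _) (by have := j.2; omega))
  have hk := Nat.eq_of_beq_eq_true (loop_spec okH k.1 (Nat.zero_le _) (by have := k.2; omega))
  apply Fin.ext
  rw [← hj, ← hk, h2]

theorem okGen (L : ℕ) (hL : L < 48) (j : ℕ) (hj : j < 1365) : chkG L j = true := by
  have key : ∀ lo, loop (fun L => loop (fun j => chkG L j) 0 1365) lo 4 = true → lo ≤ L →
      L < lo + 4 → chkG L j = true :=
    fun lo h h1 h2 => loop_spec (loop_spec h L h1 h2) j (Nat.zero_le _) (by omega)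
  have h12 : L / 4 < 12 := by omega
  have hlo : 4 * (L / 4) ≤ L := by omega
  have hhi : L < 4 * (L / 4) + 4 := by omega
  generalize L / 4 = c at h12 hlo hhi
  interval_cases c
  · exact key 0 okGen0 (by omega) (by omega)
  · exact key 4 okGen1 (by omega) (by omega)
  · exact key 8 okGen2 (by omega) (by omega)
  · exact key 12 okGen3 (by omega) (by omega)
  · exact key 16 okGen4 (by omega) (by omega)
  · exact key 20 okGen5 (by omega) (by omega)
  · exact key 24 okGen6 (by omega) (by omega)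
  · exact key 28 okGen7 (by omega) (by omega)
  · exact key 32 okGen8 (by omega) (by omega)
  · exact key 36 okGen9 (by omega) (by omega)
  · exact key 40 okGen10 (by omega) (by omega)
  · exact key 44 okGen11 (by omega) (by omega)

theorem gen_spec (r : Fin 12) (t : K4) (j : Fin 1365) :
    ∃ _ : fB cX (4 * r.1 + t.n) j.1 < 1365, ∃ l : K4, l ≠ 0 ∧
      xM r t *ᵥ vt j.1 = l • vt (fB cX (4 * r.1 + t.n) j.1) := by
  have hL : 4 * r.1 + t.n < 48 := by
    have := K4.n_lt t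
    have := r.2
    omega
  have hc : chkG (4 * r.1 + t.n) j.1 = true := okGen _ hL j.1 j.2
  unfold chkG at hc
  rw [TC2.strict_eq, TC2.strict_eq, TC2.strict_eq] at hc
  simp only [Bool.and_eq_true, Bool.or_eq_true] at hc
  obtain ⟨h1, h2⟩ := hc
  have hk : fB cX (4 * r.1 + t.n) j.1 < 1365 := blt_iff.1 h1
  have hm : xM r t *ᵥ vt j.1 = dec (mvc (4 * r.1 + t.n) (V1 j.1)) :=
    mvc_spec (xM r t) _ (okCol r t) (V1 j.1)
  refine ⟨hk, ?_⟩
  rcases h2 with h2 | h2 | h2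
  · refine ⟨1, one_ne_zero, ?_⟩
    rw [hm, Nat.eq_of_beq_eq_true h2, one_smul]
    rfl
  · refine ⟨K4.w, by decide, ?_⟩
    rw [hm, Nat.eq_of_beq_eq_true h2]
    exact (okV ⟨_, hk⟩).1
  · refine ⟨K4.u, by decide, ?_⟩
    rw [hm, Nat.eq_of_beq_eq_true h2]
    exact (okV ⟨_, hk⟩).2.1

abbrev PN : Subgroup (GL I14 K4) :=
  pnz act act_one act_mul act_smul (fun j : Fin 1365 => vt j.1) vt_inj

theorem gen_mem (g : GL I14 K4) (hg : ∃ (r : Fin 12) (t : K4), (g : Matrix I14 I14 K4) = xM r t) :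
    g ∈ PN := by
  obtain ⟨r, t, hg⟩ := hg
  intro j
  obtain ⟨h, l, hl, e⟩ := gen_spec r t j
  refine ⟨⟨_, h⟩, l, hl, ?_⟩
  show (g : Matrix I14 I14 K4) *ᵥ vt j.1 = _
  rw [hg]
  exact e

theorem S_le : SG ≤ PN :=
  (Subgroup.closure_le (K := PN)
    (k := {g : GL I14 K4 | ∃ (r : Fin 12) (t : K4), (g : Matrix I14 I14 K4) = xM r t})).2
    (fun g hg => gen_mem g hg)

/-- the action of the Chevalley group on the 1365 points -/
noncomputable def sig : SG →* Equiv.Perm (Fin 1365) :=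
  (prho act act_one act_mul act_smul (fun j : Fin 1365 => vt j.1) vt_inj).comp
    (Subgroup.inclusion S_le)

theorem hD : Cfsg.Lie.chevG2 ∈ Cfsg.Agent.Lib.Helper8.allData := by
  simp [Cfsg.Agent.Lib.Helper8.allData]

/-- the root elements as invertible matrices -/
def xGI (r : ℕ) (t : K4) : GL I14 K4 := Cfsg.Agent.Lib.Helper8.xG hD K4 r t

theorem xG_coe' {r : ℕ} (hr : r < 12) (t : K4) :
    (xGI r t : Matrix I14 I14 K4) = xM ⟨r, hr⟩ t := by
  show Cfsg.Lie.chevG2.x K4 r t = _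
  unfold Cfsg.Lie.ChevalleyDatum.x
  rw [dif_pos (show r < Cfsg.Lie.chevG2.nroots from hr)]
  rfl

theorem xG_mem {r : ℕ} (hr : r < 12) (t : K4) : xGI r t ∈ SG :=
  Subgroup.subset_closure
    (k := {g : GL I14 K4 | ∃ (r : Fin 12) (t : K4), (g : Matrix I14 I14 K4) = xM r t})
    ⟨⟨r, hr⟩, t, xG_coe' hr t⟩

/-- the root elements, numbered -/
noncomputable def xg (L : ℕ) : SG :=
  if h : L < 48 then ⟨xGI (L / 4) (K4.ofN (L % 4)), xG_mem (by omega) _⟩ else 1

theorem sig_xg : ∀ L < 48, ∀ j : Fin 1365, (sig (xg L) j).1 = fB cX L j.1 := by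
  intro L hL j
  have hr : L / 4 < 12 := by omega
  obtain ⟨h, l, hl, e⟩ := gen_spec ⟨L / 4, hr⟩ (K4.ofN (L % 4)) j
  have eL : 4 * (L / 4) + (K4.ofN (L % 4)).n = L := by
    rw [n_ofN ⟨L % 4, Nat.mod_lt _ (by decide)⟩]
    exact Nat.div_add_mod L 4
  simp only [eL] at h e
  have : sig (xg L) j = ⟨fB cX L j.1, h⟩ := by
    apply prho_eq act act_one act_mul act_smul (fun j : Fin 1365 => vt j.1) vt_inj _ j _ l hl
    unfold xg
    rw [dif_pos hL]
    show (xGI (L / 4) (K4.ofN (L % 4)) : Matrix I14 I14 K4) *ᵥ vt j.1 = _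
    rw [xG_coe' hr]
    exact e
  rw [this]

theorem sig_inj : Function.Injective sig := by
  have hs : IsSimpleGroup SG :=
    (Cfsg.Agent.S1055.result (F := K4) ⟨K4.w, by decide, by decide⟩).1
  rw [← MonoidHom.ker_eq_bot_iff]
  rcases sig.normal_ker.eq_bot_or_eq_top with h | h
  · exact h
  · exfalso
    have h1 : xg 3 ∈ sig.ker := by rw [h]; trivial
    rw [MonoidHom.mem_ker] at h1
    have h2 := sig_xg 3 (by decide) ⟨1, by decide⟩
    rw [h1] at h2
    exact x3_ne' h2.symm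

theorem card_S : Nat.card SG = 251596800 := by
  have h := Cfsg.Agent.S1059.result (F := K4) (q := 4) K4.card
  exact h.trans (by norm_num)

/-! ### the side of `Suz` -/

theorem hsel (k : ℕ) : ∀ x ∈ selW Suzc.sgw k, x < 7 := by
  rcases selW_prop Suzc.sgw k with h | h
  · exact Suzc.hsg _ h
  · rw [h]; simp

theorem hmem (k : ℕ) : evn el (selW Suzc.sgw k) ∈ Suzc.HH := by
  rw [Suzc.hH]
  rcases selW_prop Suzc.sgw k with h | h
  · exact Suzc.h2 _ h
  · rw [h]; exact Subgroup.one_mem _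

/-- the six generators -/
noncomputable def hel (k : ℕ) : Suzc.HH := ⟨evn el (selW Suzc.sgw k), hmem k⟩

def emb (j : Fin 1365) : Fin Suzc.cB.N :=
  ⟨j.1 + 417, by have := j.2; show j.1 + 417 < 1782; omega⟩

theorem emb_inj : Function.Injective emb := by
  intro j k h
  have h2 : j.1 + 417 = k.1 + 417 := congrArg Fin.val h
  apply Fin.ext
  omega

theorem fA_lt {k j : ℕ} (hk : k < 6) (hj : j < 1365) : fB cA k j < 1365 :=
  blt_iff.1 (loop_spec (loop_spec okA_lt k (Nat.zero_le _) (by omega)) j (Nat.zero_le _) (by omega))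

theorem gen_emb {k : ℕ} (hk : k < 6) (j : Fin 1365) :
    Suzc.ψ (evn el (selW Suzc.sgw k)) (emb j) = emb ⟨fB cA k j.1, fA_lt hk j.2⟩ := by
  apply Fin.ext
  rw [TC2.psi_evn Suzc.ψ Suzc.hψ _ (hsel k)]
  have := loop_spec (loop_spec okE' k (Nat.zero_le _) (by omega)) j.1 (Nat.zero_le _)
    (by have := j.2; omega)
  rwa [Nat.beq_eq] at this

theorem K_le : Suzc.HH ≤ O7.nzrA Suzc.ψ emb emb_inj := by
  rw [Suzc.hH, Subgroup.closure_le]
  intro s hs
  obtain ⟨w, hw, rfl⟩ := Suzc.h1 s hs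
  obtain ⟨k, rfl⟩ := sgw_sel w hw
  intro j
  exact ⟨_, gen_emb k.2 j⟩

/-- the action of the subgroup on the 1365 points -/
noncomputable def rhoK : Suzc.HH →* Equiv.Perm (Fin 1365) :=
  (O7.rhoA Suzc.ψ emb emb_inj).comp (Subgroup.inclusion K_le)

theorem rhoK_hel : ∀ k < 6, ∀ j : Fin 1365, (rhoK (hel k) j).1 = fB cA k j.1 := by
  intro k hk j
  have : rhoK (hel k) j = ⟨fB cA k j.1, fA_lt hk j.2⟩ := by
    apply O7.rhoA_eq
    exact gen_emb hk j
  rw [this]

noncomputable def rel (k : ℕ) : Equiv.Perm (Fin 1365) := rhoK (hel k)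

theorem card_A : 251596800 ≤ Nat.card (KW rel ws0) := by
  have hJ1 : ∀ w ∈ ws1, ∀ k ∈ w, k < 6 := fun w hw => hJ0 w (hs1 w hw)
  have hJ2 : ∀ w ∈ ws2, ∀ k ∈ w, k < 6 := fun w hw => hJ1 w (hs2 w hw)
  have s0 : 1365 * Nat.card (KW rel ws1) ≤ Nat.card (KW rel ws0) :=
    Sp4.lb_step (B := cA) (el := rel) rhoK_hel ws0 ws1 hJ0 hs1 336 (by decide) hf1 pa0 1365 hl0 hn0
  have s1 : 1024 * Nat.card (KW rel ws2) ≤ Nat.card (KW rel ws1) :=
    Sp4.lb_step (B := cA) (el := rel) rhoK_hel ws1 ws2 hJ1 hs2 0 (by decide) hf2 pa1 1024 hl1 hn1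
  have s2 : 180 * Nat.card (KW rel []) ≤ Nat.card (KW rel ws2) :=
    Sp4.lb_step (B := cA) (el := rel) rhoK_hel ws2 [] hJ2 (by simp) 1 (by decide) (by simp) pa2 180
      hl2 hn2
  have s3 : 0 < Nat.card (KW rel []) := Nat.card_pos
  omega

theorem evn_mem' {G : Type*} [Group G] (K : Subgroup G) (f : ℕ → G) (L : ℕ)
    (hf : ∀ k < L, f k ∈ K) (w : List ℕ) (hw : ∀ k ∈ w, k < L) : evn f w ∈ K := by
  apply Subgroup.list_prod_mem
  intro x hx
  rw [List.mem_map] at hx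
  obtain ⟨k, hk, rfl⟩ := hx
  exact hf k (hw k hk)

theorem A_le_rho : KW rel ws0 ≤ rhoK.range := by
  unfold KW
  rw [Subgroup.closure_le]
  rintro _ ⟨w, hw, rfl⟩
  exact evn_mem' rhoK.range rel 6 (fun k _ => ⟨_, rfl⟩) w (hJ0 w hw)

theorem card_range : 251596800 ≤ Nat.card rhoK.range :=
  card_A.trans (Subgroup.card_le_of_le A_le_rho)

theorem hel_cases (k : ℕ) : hel k = 1 ∨ ∃ k' < 6, hel k = hel k' := by
  rcases selW_prop Suzc.sgw k with h | h
  · obtain ⟨k', hk'⟩ := sgw_sel _ h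
    exact Or.inr ⟨k'.1, k'.2, Subtype.ext (by show evn el _ = evn el _; rw [hk'])⟩
  · left
    apply Subtype.ext
    show evn el _ = 1
    rw [h]
    rfl

theorem gen_top : Subgroup.closure (Set.range hel) = ⊤ := by
  apply Subgroup.map_injective Suzc.HH.subtype_injective
  rw [MonoidHom.map_closure, ← Set.range_comp, ← MonoidHom.range_eq_map, Subgroup.range_subtype]
  apply le_antisymm
  · rw [Subgroup.closure_le]
    rintro _ ⟨k, rfl⟩
    exact (hel k).2
  · conv_lhs => rw [Suzc.hH]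
    rw [Subgroup.closure_le]
    intro s hs
    obtain ⟨w, hw, rfl⟩ := Suzc.h1 s hs
    obtain ⟨k, rfl⟩ := sgw_sel w hw
    exact Subgroup.subset_closure ⟨k.1, rfl⟩

theorem aw_sel (k : ℕ) : ∀ x ∈ selW aw k, x < 48 := by
  rcases selW_prop aw k with h | h
  · exact aw_lt _ h
  · rw [h]; simp

theorem rel_eq {k : ℕ} (hk : k < 6) : rhoK (hel k) = sig (evn xg (selW aw k)) := by
  ext j
  have e1 : (sig (evn xg (selW aw k)) j).1 = app cX (selW aw k) j.1 :=
    TCS.psi_evn (B := cX) (L := 48) sig sig_xg _ (aw_sel k) j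
  rw [rhoK_hel k hk, e1]
  have := loop_spec (loop_spec okW k (Nat.zero_le _) (by omega)) j.1 (Nat.zero_le _)
    (by have := j.2; omega)
  exact (Nat.eq_of_beq_eq_true this).symm

theorem range_le : rhoK.range ≤ sig.range := by
  rw [MonoidHom.range_eq_map, ← gen_top, MonoidHom.map_closure, Subgroup.closure_le]
  rintro _ ⟨_, ⟨k, rfl⟩, rfl⟩
  rcases hel_cases k with h | ⟨k', hk', h⟩
  · rw [h, map_one]; exact Subgroup.one_mem _
  · rw [h]; exact ⟨_, (rel_eq hk').symm⟩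

theorem card_K : Nat.card Suzc.HH = 251596800 := by
  have h1 := Suzc.HH.card_mul_index
  rw [Suzc.index_eq, S1694.result.2] at h1
  omega

instance finK : Finite Suzc.HH := Nat.finite_of_card_ne_zero (by rw [card_K]; decide)

theorem main : Nonempty (Suzc.HH ≃* SG) :=
  O7.iso_of_count rhoK sig sig_inj 251596800 card_S card_K card_range range_le

end Cfsg.Agent.Lib.Helper19.G2
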