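import Cfsg.Agent.Lib.Helper19.Sp4.K4
import Cfsg.Agent.Lib.Helper19.G2.Data
import Cfsg.Agent.Lib.Helper19.TC2S

/-! Coded vectors of length 14 over the field with four elements. -/

set_option autoImplicit false
set_option maxRecDepth 1000000

namespace Cfsg.Agent.Lib.Helper19.G2

open Cfsg.Agent.Lib.Helper19.TCS
open Cfsg.Agent.Lib.Helper19.Sp4 (K4)
open Matrix

abbrev I14 := Fin 2 ⊕ Fin 12
abbrev V14 := I14 → K4

def pos : I14 → ℕ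
  | .inl i => i.1
  | .inr s => 2 + s.1

def dec (c : ℕ) : V14 := fun i => K4.ofN (c / 4 ^ pos i % 4)

theorem ofN_xor : ∀ a b : Fin 4, K4.ofN (a.1 ^^^ b.1) = K4.ofN a.1 + K4.ofN b.1 := by decide

theorem dig_xor (a b p : ℕ) :
    (a ^^^ b) / 4 ^ p % 4 = (a / 4 ^ p % 4) ^^^ (b / 4 ^ p % 4) := by
  have e : (4 : ℕ) ^ p = 2 ^ (2 * p) := by rw [pow_mul]; norm_num
  rw [e, ← Nat.shiftRight_eq_div_pow, ← Nat.shiftRight_eq_div_pow, ← Nat.shiftRight_eq_div_pow,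
    Nat.shiftRight_xor_distrib]
  exact Nat.xor_mod_two_pow (n := 2)

theorem dec_xor (a b : ℕ) : dec (a ^^^ b) = dec a + dec b := by
  funext i
  show K4.ofN ((a ^^^ b) / 4 ^ pos i % 4) = K4.ofN (a / 4 ^ pos i % 4) + K4.ofN (b / 4 ^ pos i % 4)
  rw [dig_xor]
  exact ofN_xor ⟨_, Nat.mod_lt _ (by decide)⟩ ⟨_, Nat.mod_lt _ (by decide)⟩

def enc (v : V14) : ℕ :=
  (v (.inl 0)).n + 4 * (v (.inl 1)).n + 16 * (v (.inr 0)).n + 64 * (v (.inr 1)).n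
    + 256 * (v (.inr 2)).n + 1024 * (v (.inr 3)).n + 4096 * (v (.inr 4)).n
    + 16384 * (v (.inr 5)).n + 65536 * (v (.inr 6)).n + 262144 * (v (.inr 7)).n
    + 1048576 * (v (.inr 8)).n + 4194304 * (v (.inr 9)).n + 16777216 * (v (.inr 10)).n
    + 67108864 * (v (.inr 11)).n

theorem n_ofN : ∀ m : Fin 4, (K4.ofN m.1).n = m.1 := by decide

theorem dec_n (c : ℕ) (i : I14) (p : ℕ) (q : ℕ) (hp : pos i = p) (hq : 4 ^ p = q) :
    (dec c i).n = c / q % 4 := by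
  subst hp hq
  exact n_ofN ⟨_, Nat.mod_lt _ (by decide)⟩

theorem enc_dec (c : ℕ) (h : c < 268435456) : enc (dec c) = c := by
  unfold enc
  rw [dec_n c (.inl 0) 0 1 rfl rfl, dec_n c (.inl 1) 1 4 rfl rfl, dec_n c (.inr 0) 2 16 rfl rfl,
    dec_n c (.inr 1) 3 64 rfl rfl, dec_n c (.inr 2) 4 256 rfl rfl,
    dec_n c (.inr 3) 5 1024 rfl rfl, dec_n c (.inr 4) 6 4096 rfl rfl,
    dec_n c (.inr 5) 7 16384 rfl rfl, dec_n c (.inr 6) 8 65536 rfl rfl,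
    dec_n c (.inr 7) 9 262144 rfl rfl, dec_n c (.inr 8) 10 1048576 rfl rfl,
    dec_n c (.inr 9) 11 4194304 rfl rfl, dec_n c (.inr 10) 12 16777216 rfl rfl,
    dec_n c (.inr 11) 13 67108864 rfl rfl]
  omega

theorem sum12 (f : Fin 12 → K4) : ∑ i, f i = f 0 + (f 1 + (f 2 + (f 3 + (f 4 + (f 5 + (f 6 +
    (f 7 + (f 8 + (f 9 + (f 10 + f 11)))))))))) := by
  simp only [Fin.sum_univ_succ, Fin.sum_univ_zero, add_zero]
  rfl

theorem sum14 (g : I14 → K4) : ∑ i, g i = g (.inl 0) + g (.inl 1) + (g (.inr 0) + (g (.inr 1) +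
    (g (.inr 2) + (g (.inr 3) + (g (.inr 4) + (g (.inr 5) + (g (.inr 6) + (g (.inr 7) +
    (g (.inr 8) + (g (.inr 9) + (g (.inr 10) + g (.inr 11)))))))))))) := by
  rw [Fintype.sum_sum_type, Fin.sum_univ_two, sum12]

/-- the code of a multiple of a column -/
def cc (L p d : ℕ) : ℕ := fld 28 268435455 (selN tCC L) (4 * p + d)

/-- the product of a matrix and a vector, on codes -/
def mvc (L c : ℕ) : ℕ :=
  (cc L 0 (c / 4 ^ 0 % 4) ^^^ cc L 1 (c / 4 ^ 1 % 4)) ^^^ (cc L 2 (c / 4 ^ 2 % 4) ^^^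
    (cc L 3 (c / 4 ^ 3 % 4) ^^^ (cc L 4 (c / 4 ^ 4 % 4) ^^^ (cc L 5 (c / 4 ^ 5 % 4) ^^^
    (cc L 6 (c / 4 ^ 6 % 4) ^^^ (cc L 7 (c / 4 ^ 7 % 4) ^^^ (cc L 8 (c / 4 ^ 8 % 4) ^^^
    (cc L 9 (c / 4 ^ 9 % 4) ^^^ (cc L 10 (c / 4 ^ 10 % 4) ^^^ (cc L 11 (c / 4 ^ 11 % 4) ^^^
    (cc L 12 (c / 4 ^ 12 % 4) ^^^ cc L 13 (c / 4 ^ 13 % 4))))))))))))

theorem mvc_spec (M : Matrix I14 I14 K4) (L : ℕ)
    (h : ∀ j : I14, ∀ d : Fin 4, dec (cc L (pos j) d.1) = K4.ofN d.1 • (fun i => M i j)) (c : ℕ) :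
    M *ᵥ dec c = dec (mvc L c) := by
  have h' : ∀ (j : I14) (i : I14), dec (cc L (pos j) (c / 4 ^ pos j % 4)) i = M i j * dec c j := by
    intro j i
    have := congrFun (h j ⟨c / 4 ^ pos j % 4, Nat.mod_lt _ (by decide)⟩) i
    rw [this]
    show K4.ofN (c / 4 ^ pos j % 4) * M i j = M i j * K4.ofN (c / 4 ^ pos j % 4)
    exact mul_comm _ _
  funext i
  show ∑ j, M i j * dec c j = _
  rw [sum14]
  unfold mvc
  simp only [dec_xor, Pi.add_apply]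
  rw [← h' (.inl 0) i, ← h' (.inl 1) i, ← h' (.inr 0) i, ← h' (.inr 1) i, ← h' (.inr 2) i,
    ← h' (.inr 3) i, ← h' (.inr 4) i, ← h' (.inr 5) i, ← h' (.inr 6) i, ← h' (.inr 7) i,
    ← h' (.inr 8) i, ← h' (.inr 9) i, ← h' (.inr 10) i, ← h' (.inr 11) i]
  rfl

def V1 (j : ℕ) : ℕ := fld 28 268435455 tV1 j
def V2 (j : ℕ) : ℕ := fld 28 268435455 tV2 j
def V3 (j : ℕ) : ℕ := fld 28 268435455 tV3 j

/-- the vector of a point -/
def vt (j : ℕ) : V14 := dec (V1 j)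

/-- normalised vectors -/
def Nrm (v : V14) : Prop := ∃ i, v i = 1 ∧ ∀ i', pos i' < pos i → v i' = 0

instance (v : V14) : Decidable (Nrm v) := by unfold Nrm; infer_instance

theorem pos_inj : ∀ i i' : I14, pos i = pos i' → i = i' := by decide

theorem one_of_nrm {v w : V14} (hv : Nrm v) (hw : Nrm w) (l : K4) (hl : l ≠ 0) (h : v = l • w) :
    l = 1 := by
  obtain ⟨i, hi, hi'⟩ := hv
  obtain ⟨k, hk, hk'⟩ := hw
  rcases Nat.lt_trichotomy (pos i) (pos k) with h1 | h1 | h1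
  · exfalso
    have := hk' i h1
    rw [h, Pi.smul_apply, this, smul_zero] at hi
    exact zero_ne_one hi
  · have e := pos_inj i k h1
    subst e
    rw [h, Pi.smul_apply, hk, smul_eq_mul, mul_one] at hi
    exact hi
  · exfalso
    have := hi' k h1
    rw [h, Pi.smul_apply, hk, smul_eq_mul, mul_one] at this
    exact hl this

end Cfsg.Agent.Lib.Helper19.G2
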